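import Cfsg.Agent.H326.T3.HCOne
import Cfsg.Agent.H326.T3.SlDeg
import Cfsg.Agent.H670.GL2Data
import Cfsg.Agent.H691.T3.Defs

/-!
# Irreducible characters of `GL₃(q)` induced from a cuspidal character of `GL₂(q)` (helper326, for helper691, S4855)

`gl3_Q` : `χ` irreducible without vectors fixed by `U` but with vectors fixed by the unipotent radical of a maximal
parabolic subgroup: degree `q³ - 1`, and `χ` is not stable.
-/

set_option autoImplicit false
set_option linter.unusedSectionVars false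

open scoped LinearAlgebra.Projectivization
open Cfsg Matrix

namespace Cfsg.Agent.H326.T3

open Module Cfsg.Agent.H691.T3

universe u

section Grp

variable {F : Type u} [Field F]

/-- the action on vectors -/
def act (g : GL (Fin 3) F) (v : Fin 3 → F) : Fin 3 → F := (g : Matrix (Fin 3) (Fin 3) F) *ᵥ v

theorem act_mul (g h : GL (Fin 3) F) (v : Fin 3 → F) : act (g * h) v = act g (act h v) := by
  unfold act
  rw [Units.val_mul, Matrix.mulVec_mulVec]

theorem act_one (v : Fin 3 → F) : act 1 v = v := by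
  unfold act
  rw [Units.val_one, Matrix.one_mulVec]

theorem act_inv_act (g : GL (Fin 3) F) (v : Fin 3 → F) : act g⁻¹ (act g v) = v := by
  rw [← act_mul, inv_mul_cancel, act_one]

theorem act_act_inv (g : GL (Fin 3) F) (v : Fin 3 → F) : act g (act g⁻¹ v) = v := by
  rw [← act_mul, mul_inv_cancel, act_one]

theorem act_smul (g : GL (Fin 3) F) (c : F) (v : Fin 3 → F) : act g (c • v) = c • act g v :=
  Matrix.mulVec_smul _ _ _

theorem act_sub (g : GL (Fin 3) F) (v w : Fin 3 → F) : act g (v - w) = act g v - act g w :=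
  Matrix.mulVec_sub _ _ _

theorem act_add (g : GL (Fin 3) F) (v w : Fin 3 → F) : act g (v + w) = act g v + act g w :=
  Matrix.mulVec_add _ _ _

theorem act_apply (g : GL (Fin 3) F) (v : Fin 3 → F) (i : Fin 3) :
    act g v i = (g : Matrix (Fin 3) (Fin 3) F) i 0 * v 0 + (g : Matrix (Fin 3) (Fin 3) F) i 1 * v 1 +
      (g : Matrix (Fin 3) (Fin 3) F) i 2 * v 2 := by
  unfold act
  rw [Matrix.mulVec, dotProduct, Fin.sum_univ_three]

/-- the basis vectors -/
def ee (i : Fin 3) : Fin 3 → F := Pi.single i 1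

theorem act_ee (g : GL (Fin 3) F) (i j : Fin 3) : act g (ee j) i = (g : Matrix (Fin 3) (Fin 3) F) i j := by
  unfold act ee
  rw [Matrix.mulVec_single_one]
  rfl

theorem ee_ne (i : Fin 3) : (ee i : Fin 3 → F) ≠ 0 := e_ne i

/-- the stabiliser of the line `⟨e₀⟩` -/
def PB (F : Type u) [Field F] : Subgroup (GL (Fin 3) F) where
  carrier := {g | ∃ c : F, act g (ee 0) = c • ee 0}
  one_mem' := ⟨1, by rw [act_one, one_smul]⟩
  mul_mem' := by
    rintro g h ⟨c, hc⟩ ⟨d, hd⟩
    exact ⟨d * c, by rw [act_mul, hd, act_smul, hc, smul_smul]⟩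
  inv_mem' := by
    rintro g ⟨c, hc⟩
    have hc0 : c ≠ 0 := by
      rintro rfl
      rw [zero_smul] at hc
      have := act_inv_act g (ee 0)
      rw [hc] at this
      apply ee_ne (F := F) 0
      rw [← this]
      exact Matrix.mulVec_zero _
    refine ⟨c⁻¹, ?_⟩
    have := act_inv_act g (ee 0)
    rw [hc, act_smul] at this
    rw [← this, smul_smul, inv_mul_cancel₀ hc0, one_smul, this]

theorem mem_PB {g : GL (Fin 3) F} : g ∈ PB F ↔ ∃ c : F, act g (ee 0) = c • ee 0 := Iff.rfl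

/-- the unipotent radical -/
def QQ (F : Type u) [Field F] : Subgroup (GL (Fin 3) F) where
  carrier := {g | act g (ee 0) = ee 0 ∧ ∀ v : Fin 3 → F, ∀ i : Fin 3, i ≠ 0 → act g v i = v i}
  one_mem' := ⟨act_one _, fun v i _ => by rw [act_one]⟩
  mul_mem' := by
    rintro g h ⟨h1, h2⟩ ⟨h3, h4⟩
    exact ⟨by rw [act_mul, h3, h1], fun v i hi => by rw [act_mul, h2 _ i hi, h4 _ i hi]⟩
  inv_mem' := by
    rintro g ⟨h1, h2⟩
    refine ⟨?_, fun v i hi => ?_⟩
    · have := act_inv_act g (ee 0)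
      rwa [h1] at this
    · have := h2 (act g⁻¹ v) i hi
      rw [act_act_inv] at this
      exact this.symm

theorem mem_QQ {g : GL (Fin 3) F} : g ∈ QQ F ↔
    act g (ee 0) = ee 0 ∧ ∀ v : Fin 3 → F, ∀ i : Fin 3, i ≠ 0 → act g v i = v i := Iff.rfl

/-- the unitriangular group -/
def UG (F : Type u) [Field F] : Subgroup (GL (Fin 3) F) where
  carrier := {g | act g (ee 0) = ee 0 ∧ (∀ v : Fin 3 → F, act g v 2 = v 2) ∧
    ∀ v : Fin 3 → F, v 2 = 0 → act g v 1 = v 1}
  one_mem' := ⟨act_one _, fun v => by rw [act_one], fun v _ => by rw [act_one]⟩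
  mul_mem' := by
    rintro g h ⟨h1, h2, h3⟩ ⟨k1, k2, k3⟩
    exact ⟨by rw [act_mul, k1, h1], fun v => by rw [act_mul, h2, k2], fun v hv => by
      rw [act_mul, h3 _ (by rw [k2, hv]), k3 v hv]⟩
  inv_mem' := by
    rintro g ⟨h1, h2, h3⟩
    have k2 : ∀ v : Fin 3 → F, act g⁻¹ v 2 = v 2 := by
      intro v
      have := h2 (act g⁻¹ v)
      rw [act_act_inv] at this
      exact this.symm
    refine ⟨?_, k2, fun v hv => ?_⟩
    · have := act_inv_act g (ee 0)
      rwa [h1] at this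
    · have := h3 (act g⁻¹ v) (by rw [k2, hv])
      rw [act_act_inv] at this
      exact this.symm

theorem coe_UG : ((UG F : Subgroup (GL (Fin 3) F)) : Set (GL (Fin 3) F)) = UU F := by
  ext g
  constructor
  · rintro ⟨h1, h2, h3⟩
    have a0 : ∀ i, (g : Matrix (Fin 3) (Fin 3) F) i 0 = (ee 0 : Fin 3 → F) i := fun i => by rw [← act_ee, h1]
    have a2 : ∀ j, (g : Matrix (Fin 3) (Fin 3) F) 2 j = (ee j : Fin 3 → F) 2 := fun j => by rw [← act_ee, h2]
    have a11 : (g : Matrix (Fin 3) (Fin 3) F) 1 1 = 1 := by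
      rw [← act_ee, h3 _ (by simp [ee])]
      simp [ee]
    refine ⟨?_, ?_⟩
    · intro i
      fin_cases i
      · have := a0 0; simpa [ee] using this
      · exact a11
      · have := a2 2; simpa [ee] using this
    · intro i j hij
      fin_cases i <;> fin_cases j <;> first | (exact absurd hij (by decide)) | skip
      · have := a0 1; simpa [ee] using this
      · have := a0 2; simpa [ee] using this
      · have := a2 1; simpa [ee] using this
  · rintro ⟨h1, h2⟩
    have b10 := h2 1 0 (by decide)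
    have b20 := h2 2 0 (by decide)
    have b21 := h2 2 1 (by decide)
    refine ⟨?_, fun v => ?_, fun v hv => ?_⟩
    · ext i
      rw [act_ee]
      fin_cases i
      · simpa [ee] using h1 0
      · simpa [ee] using b10
      · simpa [ee] using b20
    · rw [act_apply, b20, b21, h1 2]; ring
    · rw [act_apply, b10, h1 1, hv]; ring

theorem coe_QQ : ((QQ F : Subgroup (GL (Fin 3) F)) : Set (GL (Fin 3) F)) = QB F := by
  ext g
  constructor
  · rintro ⟨h1, h2⟩
    have hU : g ∈ UG F := ⟨h1, fun v => h2 v 2 (by decide), fun v _ => h2 v 1 (by decide)⟩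
    refine ⟨by rw [← coe_UG]; exact hU, ?_⟩
    rw [← act_ee, h2 _ 1 (by decide)]
    simp [ee]
  · rintro ⟨hU, h12⟩
    rw [← coe_UG] at hU
    have h0 : g ∈ UG F := hU
    obtain ⟨k1, k2, k3⟩ := h0
    have hU' : g ∈ UU F := by rw [← coe_UG]; exact hU
    refine ⟨k1, fun v i hi => ?_⟩
    fin_cases i
    · exact absurd rfl hi
    · show act g v 1 = v 1
      rw [act_apply, hU'.2 1 0 (by decide), hU'.1 1, h12]
      ring
    · exact k2 v

/-- comparison of elements of the parabolic subgroup modulo the unipotent radical -/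
theorem mem_QQ_of {g h : GL (Fin 3) F} (hh : h ∈ PB F) (h0 : act g (ee 0) = act h (ee 0))
    (h1 : ∀ v : Fin 3 → F, ∀ i : Fin 3, i ≠ 0 → act g v i = act h v i) : h⁻¹ * g ∈ QQ F := by
  refine ⟨by rw [act_mul, h0, act_inv_act], fun v i hi => ?_⟩
  set y := act (h⁻¹ * g) v with hy
  have e1 : act h y = act g v := by rw [hy, act_mul, act_act_inv]
  have e2 : act h (y - v) = (act h (y - v) 0) • ee 0 := by
    ext j
    by_cases hj : j = 0
    · subst hj; simp [ee]
    · rw [act_sub, e1, Pi.sub_apply, h1 v j hj, sub_self]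
      simp [ee, hj]
  obtain ⟨c, hc⟩ := (PB F).inv_mem hh
  have e3 := act_inv_act h (y - v)
  rw [e2, act_smul, hc] at e3
  have e4 := congrFun e3 i
  simp only [ee, Pi.smul_apply, Pi.single_eq_of_ne hi, smul_zero, Pi.sub_apply] at e4
  exact (sub_eq_zero.1 e4.symm)

theorem QQ_le_PB : QQ F ≤ PB F := fun g hg => ⟨1, by rw [hg.1, one_smul]⟩

theorem norm_one {p : GL (Fin 3) F} (hp : p ∈ PB F) {x : GL (Fin 3) F} (hx : x ∈ QQ F) : p * x * p⁻¹ ∈ QQ F := by
  obtain ⟨c, hc⟩ := (PB F).inv_mem hp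
  have := mem_QQ_of (g := x * p⁻¹) (h := p⁻¹) ((PB F).inv_mem hp)
    (by rw [act_mul, hc, act_smul, hx.1]) (fun v i hi => by rw [act_mul, hx.2 _ i hi])
  rw [inv_inv, ← mul_assoc] at this
  exact this

theorem norm_QQ {p : GL (Fin 3) F} (hp : p ∈ PB F) (x : GL (Fin 3) F) : x ∈ QQ F ↔ p * x * p⁻¹ ∈ QQ F := by
  refine ⟨norm_one hp, fun h => ?_⟩
  have := norm_one ((PB F).inv_mem hp) h
  have e : p⁻¹ * (p * x * p⁻¹) * p⁻¹⁻¹ = x := by group
  rwa [e] at this

/-- the matrix of the embedding of `GL₂` -/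
def blk (A : Matrix (Fin 2) (Fin 2) F) : Matrix (Fin 3) (Fin 3) F :=
  !![1, 0, 0; 0, A 0 0, A 0 1; 0, A 1 0, A 1 1]

/-- the embedding of `GL₂` -/
def blkHom (F : Type u) [Field F] : Matrix (Fin 2) (Fin 2) F →* Matrix (Fin 3) (Fin 3) F where
  toFun := blk
  map_one' := by
    ext i j
    fin_cases i <;> fin_cases j <;> simp [blk]
  map_mul' A B := by
    ext i j
    fin_cases i <;> fin_cases j <;> simp [blk, Matrix.mul_apply, Fin.sum_univ_three, Fin.sum_univ_two]

/-- the embedding of `GL₂` -/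
def emb (F : Type u) [Field F] : GL (Fin 2) F →* GL (Fin 3) F := Units.map (blkHom F)

theorem act_emb (A : GL (Fin 2) F) (v : Fin 3 → F) :
    act (emb F A) v = ![v 0, (A : Matrix (Fin 2) (Fin 2) F) 0 0 * v 1 + (A : Matrix (Fin 2) (Fin 2) F) 0 1 * v 2,
      (A : Matrix (Fin 2) (Fin 2) F) 1 0 * v 1 + (A : Matrix (Fin 2) (Fin 2) F) 1 1 * v 2] := by
  have e : ((emb F A : GL (Fin 3) F) : Matrix (Fin 3) (Fin 3) F) = blk (A : Matrix (Fin 2) (Fin 2) F) := rfl
  ext i
  rw [act_apply, e]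
  fin_cases i <;> simp [blk]

/-- the torus -/
def zc : Fˣ →* GL (Fin 3) F where
  toFun c := ⟨!![(c : F), 0, 0; 0, 1, 0; 0, 0, 1], !![((c⁻¹ : Fˣ) : F), 0, 0; 0, 1, 0; 0, 0, 1], by
    ext i j
    fin_cases i <;> fin_cases j <;> simp [Matrix.mul_apply, Fin.sum_univ_three], by
    ext i j
    fin_cases i <;> fin_cases j <;> simp [Matrix.mul_apply, Fin.sum_univ_three]⟩
  map_one' := by
    apply Units.ext
    ext i j
    fin_cases i <;> fin_cases j <;> simp
  map_mul' c d := by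
    apply Units.ext
    show !![((c * d : Fˣ) : F), 0, 0; 0, 1, 0; 0, 0, 1] =
      !![(c : F), 0, 0; 0, 1, 0; 0, 0, 1] * !![(d : F), 0, 0; 0, 1, 0; 0, 0, 1]
    ext i j
    fin_cases i <;> fin_cases j <;> simp [Matrix.mul_apply, Fin.sum_univ_three]

theorem act_zc (c : Fˣ) (v : Fin 3 → F) : act (zc c) v = ![(c : F) * v 0, v 1, v 2] := by
  have e : ((zc c : GL (Fin 3) F) : Matrix (Fin 3) (Fin 3) F) = !![(c : F), 0, 0; 0, 1, 0; 0, 0, 1] := rfl
  ext i
  rw [act_apply, e]
  fin_cases i <;> simp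

theorem det_zc (c : Fˣ) : GeneralLinearGroup.det (zc c : GL (Fin 3) F) = c := by
  apply Units.ext
  rw [GeneralLinearGroup.val_det_apply]
  have e : ((zc c : GL (Fin 3) F) : Matrix (Fin 3) (Fin 3) F) = !![(c : F), 0, 0; 0, 1, 0; 0, 0, 1] := rfl
  rw [e, Matrix.det_fin_three]
  simp

/-- the Weyl element -/
def ww (F : Type u) [Field F] : GL (Fin 3) F :=
  ⟨!![0, 1, 0; 1, 0, 0; 0, 0, 1], !![0, 1, 0; 1, 0, 0; 0, 0, 1], by
    ext i j
    fin_cases i <;> fin_cases j <;> simp [Matrix.mul_apply, Fin.sum_univ_three], by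
    ext i j
    fin_cases i <;> fin_cases j <;> simp [Matrix.mul_apply, Fin.sum_univ_three]⟩

theorem act_ww (v : Fin 3 → F) : act (ww F) v = ![v 1, v 0, v 2] := by
  have e : ((ww F : GL (Fin 3) F) : Matrix (Fin 3) (Fin 3) F) = !![0, 1, 0; 1, 0, 0; 0, 0, 1] := rfl
  ext i
  rw [act_apply, e]
  fin_cases i <;> simp

theorem ww_inv : (ww F)⁻¹ = ww F := rfl

theorem emb_mem (A : GL (Fin 2) F) : emb F A ∈ PB F := by
  refine ⟨1, ?_⟩
  rw [act_emb, one_smul]
  ext i
  fin_cases i <;> simp [ee]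

theorem zc_mem (c : Fˣ) : zc c ∈ PB F := by
  refine ⟨c, ?_⟩
  rw [act_zc]
  ext i
  fin_cases i <;> simp [ee]

/-- `zc` is central modulo the unipotent radical -/
theorem zc_comm (c : Fˣ) {p : GL (Fin 3) F} (hp : p ∈ PB F) : (zc c * p)⁻¹ * (p * zc c) ∈ QQ F := by
  obtain ⟨d, hd⟩ := hp
  apply mem_QQ_of ((PB F).mul_mem (zc_mem c) ⟨d, hd⟩)
  · have e1 : act (zc c) (ee 0) = (c : F) • ee 0 := by
      rw [act_zc]
      ext i
      fin_cases i <;> simp [ee]
    rw [act_mul, act_mul, e1, act_smul, hd, act_smul, e1, smul_comm]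
  · intro v i hi
    have e1 : act (zc c) v = v + (((c : F) - 1) * v 0) • ee 0 := by
      rw [act_zc]
      ext j
      fin_cases j <;> simp [ee]
      ring
    have e2 : act (zc c) (act p v) i = act p v i := by
      rw [act_zc]
      fin_cases i
      · exact absurd rfl hi
      · rfl
      · rfl
    rw [act_mul, act_mul, e2, e1, act_add, act_smul, hd]
    simp [ee, hi]

/-- decomposition of the parabolic subgroup -/
theorem exists_dec {p : GL (Fin 3) F} (hp : p ∈ PB F) : ∃ (A : GL (Fin 2) F) (c : Fˣ), ∃ x ∈ QQ F,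
    p = emb F A * zc c * x := by
  obtain ⟨c, hc⟩ := hp
  have p0 : ∀ i, (p : Matrix (Fin 3) (Fin 3) F) i 0 = c * (ee 0 : Fin 3 → F) i := fun i => by
    rw [← act_ee, hc]; rfl
  have p00 : (p : Matrix (Fin 3) (Fin 3) F) 0 0 = c := by rw [p0]; simp [ee]
  have p10 : (p : Matrix (Fin 3) (Fin 3) F) 1 0 = 0 := by rw [p0]; simp [ee]
  have p20 : (p : Matrix (Fin 3) (Fin 3) F) 2 0 = 0 := by rw [p0]; simp [ee]
  have hdet : (p : Matrix (Fin 3) (Fin 3) F).det ≠ 0 := by
    have := p.isUnit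
    rw [Matrix.isUnit_iff_isUnit_det] at this
    exact this.ne_zero
  rw [Matrix.det_fin_three, p00, p10, p20] at hdet
  have hc0 : c ≠ 0 := by rintro rfl; apply hdet; ring
  have hd : (!![(p : Matrix (Fin 3) (Fin 3) F) 1 1, (p : Matrix (Fin 3) (Fin 3) F) 1 2;
      (p : Matrix (Fin 3) (Fin 3) F) 2 1, (p : Matrix (Fin 3) (Fin 3) F) 2 2]).det ≠ 0 := by
    rw [Matrix.det_fin_two_of]
    intro h
    apply hdet
    linear_combination c * h
  let A : GL (Fin 2) F := GeneralLinearGroup.mkOfDetNeZero _ hd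
  have hA : (A : Matrix (Fin 2) (Fin 2) F) = !![(p : Matrix (Fin 3) (Fin 3) F) 1 1, (p : Matrix (Fin 3) (Fin 3) F) 1 2;
      (p : Matrix (Fin 3) (Fin 3) F) 2 1, (p : Matrix (Fin 3) (Fin 3) F) 2 2] := rfl
  refine ⟨A, Units.mk0 c hc0, (emb F A * zc (Units.mk0 c hc0))⁻¹ * p, ?_, by group⟩
  apply mem_QQ_of ((PB F).mul_mem (emb_mem A) (zc_mem _))
  · rw [hc, act_mul, act_zc, act_emb]
    ext i
    fin_cases i <;> simp [ee]
  · intro v i hi
    rw [act_mul, act_zc, act_emb, act_apply, hA]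
    fin_cases i
    · exact absurd rfl hi
    · simp [p10]
    · simp [p20]

/-- the second double coset -/
theorem exists_bruhat {g : GL (Fin 3) F} (hg : g ∉ PB F) : ∃ p ∈ PB F, ∃ p' ∈ PB F, g = p * ww F * p' := by
  have hx : act g (ee 0) 1 ≠ 0 ∨ act g (ee 0) 2 ≠ 0 := by
    by_contra hcon
    push Not at hcon
    apply hg
    refine ⟨act g (ee 0) 0, ?_⟩
    ext i
    fin_cases i
    · simp [ee]
    · simpa [ee] using hcon.1
    · simpa [ee] using hcon.2
  obtain ⟨a, b, hab⟩ : ∃ a b : F, act g (ee 0) 1 * b - a * act g (ee 0) 2 ≠ 0 := by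
    rcases hx with h | h
    · exact ⟨0, 1, by simpa using h⟩
    · exact ⟨1, 0, by simpa using h⟩
  have hd : (!![1, act g (ee 0) 0, 0; 0, act g (ee 0) 1, a; 0, act g (ee 0) 2, b] : Matrix (Fin 3) (Fin 3) F).det ≠ 0 := by
    rw [Matrix.det_fin_three]
    simpa using hab
  let p : GL (Fin 3) F := GeneralLinearGroup.mkOfDetNeZero _ hd
  have hp : (p : Matrix (Fin 3) (Fin 3) F) =
    !![1, act g (ee 0) 0, 0; 0, act g (ee 0) 1, a; 0, act g (ee 0) 2, b] := rfl
  have hp0 : act p (ee 0) = ee 0 := by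
    ext i
    rw [act_ee, hp]
    fin_cases i <;> simp [ee]
  have hp1 : act p (ee 1) = act g (ee 0) := by
    ext i
    rw [act_ee, hp]
    fin_cases i <;> simp
  refine ⟨p, ⟨1, by rw [hp0, one_smul]⟩, (ww F)⁻¹ * p⁻¹ * g, ⟨1, ?_⟩, by group⟩
  rw [act_mul, act_mul, ← hp1, act_inv_act, ww_inv, act_ww, one_smul]
  ext i
  fin_cases i <;> simp [ee]

open Cfsg.Agent.H670 in
/-- the root group of `GL₂` -/
noncomputable def RR (F : Type u) [Field F] : Subgroup (GL (Fin 3) F) :=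
  ((emb F).comp (GL2.data F).xh).range

open Cfsg.Agent.H670 in
theorem mem_RR {g : GL (Fin 3) F} : g ∈ RR F ↔ ∃ s : F, g = emb F (GL2.x s) := by
  constructor
  · rintro ⟨s, rfl⟩
    exact ⟨s.toAdd, rfl⟩
  · rintro ⟨s, rfl⟩
    exact ⟨Multiplicative.ofAdd s, rfl⟩

open Cfsg.Agent.H670 in
theorem act_x (s : F) (v : Fin 3 → F) : act (emb F (GL2.x s)) v = ![v 0, v 1 + s * v 2, v 2] := by
  rw [act_emb]
  have e : ((GL2.x s : GL (Fin 2) F) : Matrix (Fin 2) (Fin 2) F) = !![1, s; 0, 1] := rfl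
  rw [e]
  ext i
  fin_cases i <;> simp

theorem QQ_le_UG : QQ F ≤ UG F := fun _ h => ⟨h.1, fun v => h.2 v 2 (by decide), fun v _ => h.2 v 1 (by decide)⟩

theorem RR_le_UG : RR F ≤ UG F := by
  intro g hg
  obtain ⟨s, rfl⟩ := mem_RR.1 hg
  refine ⟨?_, fun v => ?_, fun v hv => ?_⟩
  · rw [act_x]
    ext i
    fin_cases i <;> simp [ee]
  · rw [act_x]
    rfl
  · rw [act_x, hv]
    simp

theorem RR_le_PB : RR F ≤ PB F := by
  intro g hg
  obtain ⟨s, rfl⟩ := mem_RR.1 hg
  exact emb_mem _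

open Cfsg.Agent.H670 in
theorem UG_dec {g : GL (Fin 3) F} (hg : g ∈ UG F) : ∃ k ∈ QQ F, ∃ r ∈ RR F, g = k * r := by
  obtain ⟨h1, h2, h3⟩ := hg
  have hgP : g ∈ PB F := ⟨1, by rw [h1, one_smul]⟩
  set s := (g : Matrix (Fin 3) (Fin 3) F) 1 2 with hs
  have hr : emb F (GL2.x s) ∈ RR F := mem_RR.2 ⟨s, rfl⟩
  have hrP : emb F (GL2.x s) ∈ PB F := emb_mem _
  have hU : g ∈ UU F := by rw [← coe_UG]; exact ⟨h1, h2, h3⟩
  have hk : (emb F (GL2.x s))⁻¹ * g ∈ QQ F := by
    apply mem_QQ_of hrP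
    · rw [h1, act_x]
      ext i
      fin_cases i <;> simp [ee]
    · intro v i hi
      rw [act_x]
      fin_cases i
      · exact absurd rfl hi
      · show act g v 1 = v 1 + s * v 2
        rw [act_apply, hU.2 1 0 (by decide), hU.1 1]
        ring
      · exact h2 v
  refine ⟨emb F (GL2.x s) * ((emb F (GL2.x s))⁻¹ * g) * (emb F (GL2.x s))⁻¹, norm_one hrP hk, _, hr, by group⟩

/-- the conjugate of the root group in the unipotent radical -/
theorem RR_conj {g : GL (Fin 3) F} (hg : g ∈ RR F) : (ww F)⁻¹ * g * ww F ∈ QQ F := by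
  obtain ⟨s, rfl⟩ := mem_RR.1 hg
  refine ⟨?_, fun v i hi => ?_⟩
  · rw [act_mul, act_mul, ww_inv, act_ww, act_x, act_ww]
    ext i
    fin_cases i <;> simp [ee]
  · rw [act_mul, act_mul, ww_inv, act_ww, act_x, act_ww]
    fin_cases i
    · exact absurd rfl hi
    · simp
    · simp

/-- the index -/
theorem index_PB [Fintype F] : (PB F).index = Fintype.card F ^ 2 + Fintype.card F + 1 := by
  have hfin' : Finite (ℙ F (Fin 3 → F)) := by
    unfold Projectivization
    infer_instance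
  have h2 : MulAction.IsMultiplyPretransitive (SpecialLinearGroup (Fin 3) F) (ℙ F (Fin 3 → F)) 2 := inferInstance
  have htr : MulAction.IsPretransitive (SpecialLinearGroup (Fin 3) F) (ℙ F (Fin 3 → F)) :=
    MulAction.isPretransitive_of_is_two_pretransitive
  have htr' : MulAction.IsPretransitive (GL (Fin 3) F) (ℙ F (Fin 3 → F)) := by
    refine ⟨fun x y => ?_⟩
    obtain ⟨g, hg⟩ := MulAction.exists_smul_eq (SpecialLinearGroup (Fin 3) F) x y
    refine ⟨SpecialLinearGroup.toGL g, ?_⟩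
    rw [← hg]
    rfl
  have hst : PB F = MulAction.stabilizer (GL (Fin 3) F) (Projectivization.mk F (ee 0 : Fin 3 → F) (ee_ne 0)) := by
    ext g
    rw [MulAction.mem_stabilizer_iff, Projectivization.smul_mk, Projectivization.mk_eq_mk_iff']
    constructor
    · rintro ⟨c, hc⟩
      exact ⟨c, hc.symm⟩
    · rintro ⟨c, hc⟩
      exact ⟨c, hc.symm⟩
  rw [hst, MulAction.index_stabilizer_of_transitive, card_points]

end Grp

end Cfsg.Agent.H326.T3
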