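import Cfsg.Agent.H326.T3.GlQ

/-!
# Irreducible characters of `GL₃(q)` induced from a cuspidal character of `GL₂(q)` (helper326): characters
-/

set_option autoImplicit false
set_option linter.unusedSectionVars false

open Cfsg Matrix

namespace Cfsg.Agent.H326.T3

open Module Cfsg.Agent.H691.T3 Cfsg.Agent.H892.MultOne Cfsg.Agent.Characters

universe u

section Char

theorem irr_of {G : Type*} [Group G] {V : Type*} [AddCommGroup V] [Module ℂ V] {ρ : Representation ℂ G V}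
    (h : ρ.IsIrreducible) : Irr ρ := by
  intro W hW
  let S : Subrepresentation ρ := ⟨W, fun g v hv => hW g v hv⟩
  rcases h.eq_bot_or_eq_top S with h1 | h1
  · left
    exact congrArg Subrepresentation.toSubmodule h1
  · right
    exact congrArg Subrepresentation.toSubmodule h1

theorem sum_conv {G : Type*} [Group G] (H : Subgroup G) [Fintype H] {S : Set G} (hS : (H : Set G) = S) (χ : G → ℂ) :
    ∑ᶠ u ∈ S, χ u = ∑ h : H, χ h := by
  rw [← hS, ← finsum_set_coe_eq_finsum_mem, finsum_eq_sum_of_fintype]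
  rfl

theorem trace_av_one {G : Type*} [Group G] [Finite G] {V : Type*} [AddCommGroup V] [Module ℂ V]
    (ρ : Representation ℂ G V) [FiniteDimensional ℂ V] (H : Subgroup G) [Fintype H] :
    LinearMap.trace ℂ V (av ρ H) = (Nat.card H : ℂ)⁻¹ * ∑ h : H, ρ.character h := by
  have h := trace_av ρ H 1
  rw [map_one, one_mul] at h
  rw [h]
  simp only [one_mul]

variable {F : Type} [Field F] [Fintype F] {V : Type*} [AddCommGroup V] [Module ℂ V] [FiniteDimensional ℂ V]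
  {ρ : Representation ℂ (GL (Fin 3) F) V}

theorem av_UG (h : ∑ᶠ u ∈ UU F, ρ.character u = 0) : av ρ (UG F) = 0 := by
  classical
  letI : Fintype (UG F) := Fintype.ofFinite _
  apply eq_zero_of_trace (av_mul_av ρ _)
  rw [trace_av_one, ← sum_conv (UG F) coe_UG, h, mul_zero]

theorem av_QQ (h : ∑ᶠ u ∈ QB F, ρ.character u ≠ 0) : av ρ (QQ F) ≠ 0 := by
  classical
  letI : Fintype (QQ F) := Fintype.ofFinite _
  intro h0
  apply h
  rw [sum_conv (QQ F) coe_QQ]
  have h1 := trace_av_one ρ (QQ F)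
  rw [h0, map_zero] at h1
  exact (mul_eq_zero.1 h1.symm).resolve_left (inv_ne_zero (card_ne _))

theorem av_QQ_mul_av_RR : av ρ (QQ F) * av ρ (RR F) = av ρ (UG F) :=
  av_mul_av_of ρ QQ_le_UG RR_le_UG (fun _ h => UG_dec h) (fun r hr k => norm_QQ (RR_le_PB hr) k)

theorem cell (h : ∑ᶠ u ∈ UU F, ρ.character u = 0) : av ρ (QQ F) * ρ (ww F) * av ρ (QQ F) = 0 := by
  -- the conjugate of the root group
  let R' : Subgroup (GL (Fin 3) F) := (RR F).comap (MulAut.conj (ww F)).toMonoidHom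
  have hR' : ∀ x, x ∈ R' ↔ ww F * x * (ww F)⁻¹ ∈ RR F := fun x => Iff.rfl
  have hle : R' ≤ QQ F := by
    intro x hx
    have h1 := RR_conj ((hR' x).1 hx)
    have e : (ww F)⁻¹ * (ww F * x * (ww F)⁻¹) * ww F = x := by group
    rwa [e] at h1
  have h1 : av ρ R' * av ρ (QQ F) = av ρ (QQ F) := av_mul_of ρ fun x hx => rho_mul_av ρ (hle hx)
  have h2 : ρ (ww F) * av ρ R' = av ρ (RR F) * ρ (ww F) := rho_mul_av_of ρ hR'
  calc av ρ (QQ F) * ρ (ww F) * av ρ (QQ F) = av ρ (QQ F) * (ρ (ww F) * av ρ R') * av ρ (QQ F) := by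
        rw [mul_assoc, mul_assoc (av ρ (QQ F)) (ρ (ww F) * av ρ R'), mul_assoc (ρ (ww F)), h1]
    _ = (av ρ (QQ F) * av ρ (RR F)) * ρ (ww F) * av ρ (QQ F) := by rw [h2]; simp only [mul_assoc]
    _ = 0 := by rw [av_QQ_mul_av_RR, av_UG h, zero_mul, zero_mul]

theorem hyp (hirr : Irr ρ) (h : ∑ᶠ u ∈ UU F, ρ.character u = 0) (hQ : ∑ᶠ u ∈ QB F, ρ.character u ≠ 0) :
    Hyp ρ (QQ F) (PB F) where
  irr := hirr
  norm p hp x := norm_QQ hp x
  out g hg := by
    obtain ⟨p, hp, p', hp', rfl⟩ := exists_bruhat hg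
    rw [map_mul, map_mul]
    have h1 : ρ p * av ρ (QQ F) = av ρ (QQ F) * ρ p := rho_mul_av_of ρ (norm_QQ hp)
    have h2 : ρ p' * av ρ (QQ F) = av ρ (QQ F) * ρ p' := rho_mul_av_of ρ (norm_QQ hp')
    calc av ρ (QQ F) * (ρ p * ρ (ww F) * ρ p') * av ρ (QQ F)
        = (av ρ (QQ F) * ρ p) * ρ (ww F) * (ρ p' * av ρ (QQ F)) := by simp only [mul_assoc]
      _ = ρ p * (av ρ (QQ F) * ρ (ww F) * av ρ (QQ F)) * ρ p' := by rw [← h1, h2]; simp only [mul_assoc]
      _ = 0 := by rw [cell h, mul_zero, zero_mul]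
  ne := av_QQ hQ

/-- the torus acts as a scalar -/
theorem exists_mu (hh : Hyp ρ (QQ F) (PB F)) (c : Fˣ) : ∃ a : ℂ, ρ (zc c) * av ρ (QQ F) = a • av ρ (QQ F) := by
  apply hh.schur
  · rw [mul_assoc, av_mul_av]
  · intro p hp
    have h1 : ρ (p * zc c) * av ρ (QQ F) = ρ (zc c * p) * av ρ (QQ F) := by
      have e : p * zc c = zc c * p * ((zc c * p)⁻¹ * (p * zc c)) := by group
      rw [e, map_mul, mul_assoc, rho_mul_av ρ (zc_comm c hp)]
    rw [← mul_assoc, ← map_mul, h1, map_mul, mul_assoc, mul_assoc, hh.comm hp]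

/-- the character of `GL₂` -/
noncomputable def psi (ρ : Representation ℂ (GL (Fin 3) F) V) : GL (Fin 2) F → ℂ :=
  fun A => LinearMap.trace ℂ V (ρ (emb F A) * av ρ (QQ F))

theorem isIrr_psi (hh : Hyp ρ (QQ F) (PB F)) : IsIrrCharacter (GL (Fin 2) F) (psi ρ) := by
  refine hh.isIrr (emb F) (fun A => emb_mem A) ?_
  intro p hp
  obtain ⟨A, c, x, hx, rfl⟩ := exists_dec hp
  obtain ⟨a, ha⟩ := exists_mu hh c
  refine ⟨A, a, ?_⟩
  rw [map_mul, mul_assoc, rho_mul_av ρ hx, map_mul, mul_assoc, ha, mul_smul_comm]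

open Cfsg.Agent.H670 Cfsg.Agent.H670.RankOne in
theorem psi_sum (h : ∑ᶠ u ∈ UU F, ρ.character u = 0) : ∑ s : F, psi ρ (GL2.x s) = 0 := by
  classical
  letI : Fintype (RR F) := Fintype.ofFinite _
  have hinj : Function.Injective ((emb F).comp (GL2.data F).xh) := by
    intro s t hst
    have h1 : emb F (GL2.x s.toAdd) = emb F (GL2.x t.toAdd) := hst
    have h2 := congrArg (fun g => act g (ee 2) 1) h1
    simp only [act_x] at h2
    simpa [ee] using h2
  have e1 : av ρ (RR F) = (Nat.card (RR F) : ℂ)⁻¹ • ∑ s : F, ρ (emb F (GL2.x s)) := by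
    rw [av_eq]
    refine congrArg (fun x : Module.End ℂ V => (Nat.card (RR F) : ℂ)⁻¹ • x) ?_
    let e : F ≃ RR F := (Multiplicative.ofAdd (α := F)).trans (MonoidHom.ofInjective hinj).toEquiv
    exact (Fintype.sum_equiv e (fun s : F => ρ (emb F (GL2.x s))) (fun h : RR F => ρ (h : GL (Fin 3) F))
      (fun s => rfl)).symm
  have h1 : LinearMap.trace ℂ V (av ρ (RR F) * av ρ (QQ F)) = 0 := by
    rw [LinearMap.trace_mul_comm, av_QQ_mul_av_RR, av_UG h, map_zero]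
  rw [e1, smul_mul_assoc, map_smul, Finset.sum_mul, map_sum] at h1
  exact (smul_eq_zero.1 h1).resolve_left (inv_ne_zero (card_ne _))

open Cfsg.Agent.H670 Cfsg.Agent.H670.RankOne in
/-- an irreducible character of `GL₂(q)` without `U`-fixed vectors has degree `q - 1` -/
theorem degree_two {θ : GL (Fin 2) F → ℂ} (hθ : IsIrrCharacter _ θ) (h : ∑ s : F, θ (GL2.x s) = 0) :
    θ 1 = ((Fintype.card F - 1 : ℕ) : ℂ) := by
  classical
  letI : Fintype (GL (Fin 2) F) := Fintype.ofFinite _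
  let D := GL2.data F
  let χ : IrrCharacter (GL (Fin 2) F) := ⟨θ, hθ⟩
  have h0 : D.n χ 0 = 0 := by
    rw [D.n_eq_iff, D.cf_zero]
    have : ∑ s : F, (χ : GL (Fin 2) F → ℂ) (D.X s) = 0 := h
    rw [this, mul_zero, Nat.cast_zero]
  have hc : ∀ c : F, c ≠ 0 → D.n χ c = D.n χ 1 := by
    intro c hc
    obtain ⟨t, ht⟩ := GL2.a_surj (Units.mk0 c hc)
    have := D.n_mul χ t 1
    rwa [show (D.a t : F) = c by rw [show D.a t = Units.mk0 c hc from ht]; rfl, mul_one] at this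
  have hdeg := D.degree_eq χ
  have hsum : ∑ c : F, D.n χ c = (Fintype.card F - 1) * D.n χ 1 := by
    rw [← Finset.add_sum_erase _ _ (Finset.mem_univ (0 : F)), h0, zero_add]
    rw [Finset.sum_congr rfl (fun c hc' => hc c (Finset.ne_of_mem_erase hc')), Finset.sum_const,
      Finset.card_erase_of_mem (Finset.mem_univ _), Finset.card_univ, smul_eq_mul]
  rw [hsum] at hdeg
  have hdeg' : θ 1 = (((Fintype.card F - 1) * D.n χ 1 : ℕ) : ℂ) := hdeg
  rcases D.n_le_one GL2.hasAnti χ (one_ne_zero (α := F)) with h1 | h1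
  · exfalso
    rw [h1, mul_zero, Nat.cast_zero] at hdeg'
    exact Core.isIrr_apply_one_ne_zero hθ hdeg'
  · rw [hdeg', h1, mul_one]

theorem trace_QQ (hh : Hyp ρ (QQ F) (PB F)) (h : ∑ᶠ u ∈ UU F, ρ.character u = 0) :
    LinearMap.trace ℂ V (av ρ (QQ F)) = ((Fintype.card F - 1 : ℕ) : ℂ) := by
  have h1 := degree_two (isIrr_psi hh) (psi_sum h)
  unfold psi at h1
  rwa [map_one, map_one, one_mul] at h1

theorem degree_three (hh : Hyp ρ (QQ F) (PB F)) (h : ∑ᶠ u ∈ UU F, ρ.character u = 0) :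
    finrank ℂ V = (Fintype.card F ^ 2 + Fintype.card F + 1) * (Fintype.card F - 1) := by
  have h1 := hh.trace_eq
  rw [trace_QQ hh h, ← (PB F).card_mul_index, index_PB] at h1
  have h2 : Nat.card (PB F) * ((Fintype.card F ^ 2 + Fintype.card F + 1) * (Fintype.card F - 1)) =
      Nat.card (PB F) * finrank ℂ V := by
    rw [← mul_assoc]
    exact_mod_cast h1
  exact (Nat.eq_of_mul_eq_mul_left Nat.card_pos h2).symm

theorem det_QQ {x : GL (Fin 3) F} (hx : x ∈ QQ F) : GeneralLinearGroup.det x = 1 := by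
  have h1 : x ∈ UU F := by
    rw [← coe_UG]
    exact QQ_le_UG hx
  apply Units.ext
  rw [GeneralLinearGroup.val_det_apply, Matrix.det_fin_three, h1.1 0, h1.1 1, h1.1 2, h1.2 1 0 (by decide),
    h1.2 2 0 (by decide), h1.2 2 1 (by decide), Units.val_one]
  ring

theorem not_stab (hh : Hyp ρ (QQ F) (PB F)) (h : ∑ᶠ u ∈ UU F, ρ.character u = 0) : ¬ Stab ρ.character := by
  classical
  letI : Fintype (QQ F) := Fintype.ofFinite _
  rintro ⟨l, hl, hs⟩
  apply hl
  ext c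
  obtain ⟨a, ha⟩ := exists_mu hh c
  have hq : 1 < Fintype.card F := Fintype.one_lt_card
  have htr : LinearMap.trace ℂ V (ρ (zc c) * av ρ (QQ F)) ≠ 0 := by
    rw [ha, map_smul, trace_QQ hh h, smul_eq_mul]
    apply mul_ne_zero
    · rintro rfl
      rw [zero_smul] at ha
      apply hh.ne
      have h1 : ρ (zc c)⁻¹ * (ρ (zc c) * av ρ (QQ F)) = av ρ (QQ F) := by
        rw [← mul_assoc, ← map_mul, inv_mul_cancel, map_one, one_mul]
      rw [← h1, ha, mul_zero]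
    · exact Nat.cast_ne_zero.2 (by omega)
  have h1 : LinearMap.trace ℂ V (ρ (zc c) * av ρ (QQ F)) =
      ((l c : ℂˣ) : ℂ) * LinearMap.trace ℂ V (ρ (zc c) * av ρ (QQ F)) := by
    have h3 : ∑ x : QQ F, ρ.character (zc c * x) = ((l c : ℂˣ) : ℂ) * ∑ x : QQ F, ρ.character (zc c * x) := by
      rw [Finset.mul_sum]
      refine Finset.sum_congr rfl fun x _ => ?_
      have h2 := hs (zc c * x)
      rw [map_mul, det_zc, det_QQ x.2, mul_one] at h2
      exact h2.symm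
    rw [trace_av, ← mul_assoc, mul_comm ((l c : ℂˣ) : ℂ), mul_assoc, ← h3]
  have h2 : (((l c : ℂˣ) : ℂ) - 1) * LinearMap.trace ℂ V (ρ (zc c) * av ρ (QQ F)) = 0 := by
    rw [sub_mul, one_mul, ← h1, sub_self]
  rw [MonoidHom.one_apply, Units.val_one]
  exact sub_eq_zero.1 ((mul_eq_zero.1 h2).resolve_right htr)

theorem gl3_QB {χ : GL (Fin 3) F → ℂ} (hχ : IsIrrCharacter (GL (Fin 3) F) χ)
    (h : ∑ᶠ u ∈ UU F, χ u = 0) (hQ : ∑ᶠ u ∈ QB F, χ u ≠ 0) :
    ¬ Stab χ ∧ charDegree χ + 1 = Fintype.card F ^ 3 := by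
  obtain ⟨n, ρ, hρ, rfl⟩ := hχ
  have hh := hyp (irr_of hρ) h hQ
  refine ⟨not_stab hh h, ?_⟩
  have h1 := degree_three hh h
  have hq : 1 < Fintype.card F := Fintype.one_lt_card
  have h2 : charDegree ρ.character = (Fintype.card F ^ 2 + Fintype.card F + 1) * (Fintype.card F - 1) := by
    apply Cfsg.Agent.Blocks.Basic.charDegree_of_eq
    rw [Representation.char_one, h1]
  rw [h2]
  obtain ⟨k, hk⟩ : ∃ k, Fintype.card F = k + 1 := ⟨Fintype.card F - 1, by omega⟩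
  rw [hk, Nat.add_sub_cancel]
  ring

end Char

/-! ### The graph automorphism -/

section Tau

variable {F : Type u} [Field F]

/-- the automorphism `g ↦ J g⁻ᵀ J` -/
def tau (F : Type u) [Field F] : GL (Fin 3) F →* GL (Fin 3) F where
  toFun g := ⟨((g⁻¹ : GL (Fin 3) F) : Matrix (Fin 3) (Fin 3) F)ᵀ.submatrix Fin.revPerm Fin.revPerm,
    (g : Matrix (Fin 3) (Fin 3) F)ᵀ.submatrix Fin.revPerm Fin.revPerm, by
      rw [Matrix.submatrix_mul_equiv, ← Matrix.transpose_mul, ← Units.val_mul, mul_inv_cancel, Units.val_one,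
        Matrix.transpose_one, Matrix.submatrix_one_equiv], by
      rw [Matrix.submatrix_mul_equiv, ← Matrix.transpose_mul, ← Units.val_mul, inv_mul_cancel, Units.val_one,
        Matrix.transpose_one, Matrix.submatrix_one_equiv]⟩
  map_one' := by
    apply Units.ext
    show ((1⁻¹ : GL (Fin 3) F) : Matrix (Fin 3) (Fin 3) F)ᵀ.submatrix Fin.revPerm Fin.revPerm = 1
    rw [inv_one, Units.val_one, Matrix.transpose_one, Matrix.submatrix_one_equiv]
  map_mul' g h := by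
    apply Units.ext
    show (((g * h)⁻¹ : GL (Fin 3) F) : Matrix (Fin 3) (Fin 3) F)ᵀ.submatrix Fin.revPerm Fin.revPerm =
      ((g⁻¹ : GL (Fin 3) F) : Matrix (Fin 3) (Fin 3) F)ᵀ.submatrix Fin.revPerm Fin.revPerm *
      ((h⁻¹ : GL (Fin 3) F) : Matrix (Fin 3) (Fin 3) F)ᵀ.submatrix Fin.revPerm Fin.revPerm
    rw [Matrix.submatrix_mul_equiv, ← Matrix.transpose_mul, ← Units.val_mul, ← _root_.mul_inv_rev]

theorem tau_inv_coe (g : GL (Fin 3) F) :
    ((tau F g⁻¹ : GL (Fin 3) F) : Matrix (Fin 3) (Fin 3) F) =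
      (g : Matrix (Fin 3) (Fin 3) F)ᵀ.submatrix Fin.revPerm Fin.revPerm := by
  show ((g⁻¹⁻¹ : GL (Fin 3) F) : Matrix (Fin 3) (Fin 3) F)ᵀ.submatrix Fin.revPerm Fin.revPerm = _
  rw [inv_inv]

theorem tau_tau (g : GL (Fin 3) F) : tau F (tau F g) = g := by
  apply Units.ext
  have h1 := tau_inv_coe (F := F) (tau F g⁻¹)
  rw [← map_inv, inv_inv, tau_inv_coe] at h1
  rw [h1]
  ext i j
  simp

theorem det_tau (g : GL (Fin 3) F) : GeneralLinearGroup.det (tau F g) = (GeneralLinearGroup.det g)⁻¹ := by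
  have h1 : ∀ g : GL (Fin 3) F, GeneralLinearGroup.det (tau F g⁻¹) = GeneralLinearGroup.det g := by
    intro g
    apply Units.ext
    rw [GeneralLinearGroup.val_det_apply, GeneralLinearGroup.val_det_apply, tau_inv_coe,
      Matrix.det_submatrix_equiv_self, Matrix.det_transpose]
  have h2 := h1 g⁻¹
  rwa [inv_inv, map_inv] at h2

/-- the automorphism as an equivalence -/
def tauE (F : Type u) [Field F] : GL (Fin 3) F ≃* GL (Fin 3) F :=
  { tau F with
    invFun := tau F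
    left_inv := tau_tau
    right_inv := tau_tau }

theorem tau_inv_apply (g : GL (Fin 3) F) (i j : Fin 3) :
    ((tau F g⁻¹ : GL (Fin 3) F) : Matrix (Fin 3) (Fin 3) F) i j =
      (g : Matrix (Fin 3) (Fin 3) F) (Fin.rev j) (Fin.rev i) := by
  rw [tau_inv_coe]
  rfl

theorem inv_mem_UU {g : GL (Fin 3) F} (h : g ∈ UU F) : g⁻¹ ∈ UU F := by
  rw [← coe_UG] at h ⊢
  exact (UG F).inv_mem h

theorem tau_inv_mem_UU {g : GL (Fin 3) F} (h : g ∈ UU F) : tau F g⁻¹ ∈ UU F := by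
  refine ⟨fun i => ?_, fun i j hij => ?_⟩
  · rw [tau_inv_apply]
    exact h.1 _
  · rw [tau_inv_apply]
    exact h.2 _ _ (Fin.rev_lt_rev.2 hij)

theorem tau_mem_UU {g : GL (Fin 3) F} : tau F g ∈ UU F ↔ g ∈ UU F := by
  have h1 : ∀ g : GL (Fin 3) F, g ∈ UU F → tau F g ∈ UU F := by
    intro g h
    have := tau_inv_mem_UU (inv_mem_UU h)
    rwa [inv_inv] at this
  refine ⟨fun h => ?_, h1 g⟩
  have := h1 _ h
  rwa [tau_tau] at this

theorem inv_mem_QB {g : GL (Fin 3) F} : g⁻¹ ∈ QB F ↔ g ∈ QB F := by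
  rw [← coe_QQ]
  exact (QQ F).inv_mem_iff

theorem tau_mem_QA {g : GL (Fin 3) F} : tau F g ∈ QA F ↔ g ∈ QB F := by
  have key : ∀ g : GL (Fin 3) F, tau F g⁻¹ ∈ QA F ↔ g ∈ QB F := by
    intro g
    have h1 : tau F g⁻¹ ∈ UU F ↔ g ∈ UU F := by
      rw [tau_mem_UU]
      exact ⟨fun h => by simpa using inv_mem_UU h, inv_mem_UU⟩
    have h2 : ((tau F g⁻¹ : GL (Fin 3) F) : Matrix (Fin 3) (Fin 3) F) 0 1 = (g : Matrix (Fin 3) (Fin 3) F) 1 2 :=
      tau_inv_apply g 0 1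
    unfold QA QB
    simp only [Set.mem_setOf_eq]
    rw [h1, h2]
  have := key g⁻¹
  rw [inv_inv, inv_mem_QB] at this
  exact this

theorem tau_mem_QB {g : GL (Fin 3) F} : tau F g ∈ QB F ↔ g ∈ QA F := by
  have := tau_mem_QA (g := tau F g)
  rw [tau_tau] at this
  exact this.symm

theorem sum_tau {S T : Set (GL (Fin 3) F)} (h : ∀ g, tau F g ∈ S ↔ g ∈ T) (χ : GL (Fin 3) F → ℂ) :
    ∑ᶠ u ∈ T, χ (tau F u) = ∑ᶠ u ∈ S, χ u := by
  refine finsum_mem_eq_of_bijOn (tau F) ⟨fun x hx => (h x).2 hx, fun x _ y _ hxy => (tauE F).injective hxy, ?_⟩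
    (fun x _ => rfl)
  intro y hy
  exact ⟨tau F y, (h _).1 (by rw [tau_tau]; exact hy), tau_tau y⟩

/-- **(Q)** : irreducible characters of `GL₃(q)` induced from a cuspidal character of `GL₂(q)`. -/
theorem gl3_Q {F : Type} [Field F] [Fintype F] {χ : GL (Fin 3) F → ℂ} (hχ : IsIrrCharacter (GL (Fin 3) F) χ)
    (h : ∑ᶠ u ∈ UU F, χ u = 0) (hQ : ∑ᶠ u ∈ QA F, χ u ≠ 0 ∨ ∑ᶠ u ∈ QB F, χ u ≠ 0) :
    ¬ Stab χ ∧ charDegree χ + 1 = Fintype.card F ^ 3 := by
  rcases hQ with hQ | hQ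
  · have h1 : IsIrrCharacter (GL (Fin 3) F) (χ ∘ tau F) := Core.isIrr_comp (tau F) (tauE F).surjective hχ
    have h2 : ∑ᶠ u ∈ UU F, (χ ∘ tau F) u = 0 := by
      rw [← h]
      exact sum_tau (fun g => tau_mem_UU) χ
    have h3 : ∑ᶠ u ∈ QB F, (χ ∘ tau F) u ≠ 0 := by
      have := sum_tau (fun g => tau_mem_QA (F := F) (g := g)) χ
      intro h4
      apply hQ
      rw [← this]
      exact h4
    obtain ⟨h4, h5⟩ := gl3_QB h1 h2 h3
    refine ⟨?_, ?_⟩
    · rintro ⟨l, hl, hs⟩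
      apply h4
      refine ⟨l⁻¹, fun h6 => hl ?_, fun g => ?_⟩
      · refine MonoidHom.ext fun c => ?_
        have h7 := DFunLike.congr_fun h6 c
        rw [MonoidHom.inv_apply] at h7
        exact inv_eq_one.1 h7
      have := hs (tau F g)
      rw [det_tau, map_inv] at this
      exact this
    · rw [← h5]
      congr 1
      unfold charDegree
      show _ = _
      simp
  · exact gl3_QB hχ h hQ

end Tau

end Cfsg.Agent.H326.T3
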